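import Mathlib
import Cfsg.Agent.Lib.PGroups.OrderCount2

/-! Counting elements of a given order, tools for recognising small alternating groups. -/

set_option autoImplicit false

namespace Cfsg.Agent.Lib.NSE

open Subgroup Cfsg.Agent.Lib.PGroups Cfsg.Agent.Lib.PGroups.OrderCount

variable {G : Type*} [Group G] [Finite G]

theorem tot (m k : ℕ) (hk : Nat.totient m = k) : k ∣ oc G m := hk ▸ totient_dvd_oc m

theorem oc_zero_of_dvd {a b : ℕ} (h : oc G a = 0) (hab : a ∣ b) : oc G b = 0 := by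
  by_contra hb
  obtain ⟨g, hg⟩ := oc_ne_zero_iff.mp hb
  apply (oc_ne_zero_iff (G := G) (m := a)).mpr _ h
  exact ⟨g ^ (orderOf g / a), orderOf_pow_orderOf_div (orderOf_pos g).ne' (hg ▸ hab)⟩

theorem oc_eq_filter [Fintype G] [DecidableEq G] (d : ℕ) :
    oc G d = (Finset.univ.filter (fun g : G => orderOf g = d)).card := by
  unfold oc
  rw [Nat.card_eq_fintype_card, Fintype.card_subtype]

theorem sum_le (T : Finset ℕ) : ∑ d ∈ T, oc G d ≤ Nat.card G := by
  classical
  have := Fintype.ofFinite G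
  simp_rw [oc_eq_filter]
  rw [Nat.card_eq_fintype_card, ← Finset.card_univ, ← Finset.card_biUnion]
  · exact Finset.card_le_card (Finset.subset_univ _)
  · intro a _ b _ hab
    refine Finset.disjoint_left.2 (fun g hg hg' => hab ?_)
    simp only [Finset.mem_filter, Finset.mem_univ, true_and] at hg hg'
    rw [← hg, ← hg']

theorem sum_eq (T : Finset ℕ) (hT : ∀ g : G, orderOf g ∈ T) : ∑ d ∈ T, oc G d = Nat.card G := by
  classical
  have := Fintype.ofFinite G
  simp_rw [oc_eq_filter]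
  rw [Nat.card_eq_fintype_card, ← Finset.card_univ, ← Finset.card_biUnion]
  · congr 1
    ext g
    simp only [Finset.mem_biUnion, Finset.mem_filter, Finset.mem_univ, true_and, iff_true]
    exact ⟨_, hT g, rfl⟩
  · intro a _ b _ hab
    refine Finset.disjoint_left.2 (fun g hg hg' => hab ?_)
    simp only [Finset.mem_filter, Finset.mem_univ, true_and] at hg hg'
    rw [← hg, ← hg']

theorem frob {m : ℕ} (h0 : m ≠ 0) (hm : m ∣ Nat.card G) : m ∣ ∑ d ∈ m.divisors, oc G d := by
  rw [← sol_eq_sum h0]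
  exact frobenius hm

theorem syl_conj {p k : ℕ} [hp : Fact p.Prime] {x : G} (hx : orderOf x = p ^ k)
    (hk : ¬ p ^ (k + 1) ∣ Nat.card G) {t : G} (ht : IsPGroup p (zpowers t)) :
    ∃ g : G, ∃ i : ℕ, t = g * x ^ i * g⁻¹ := by
  have hX : IsPGroup p (zpowers x) := IsPGroup.of_card (n := k) (by rw [Nat.card_zpowers, hx])
  obtain ⟨P, hP⟩ := hX.exists_le_sylow
  obtain ⟨Q, hQ⟩ := ht.exists_le_sylow
  have hPc : (P : Subgroup G) = zpowers x := by
    symm
    apply Subgroup.eq_of_le_of_card_ge hP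
    obtain ⟨e, he⟩ := (IsPGroup.iff_card).1 P.isPGroup'
    rw [Nat.card_zpowers, hx, he]
    apply Nat.pow_le_pow_right hp.out.pos
    by_contra hlt
    apply hk
    have h1 : p ^ e ∣ Nat.card G := he ▸ (Subgroup.card_subgroup_dvd_card _)
    exact (pow_dvd_pow p (by omega)).trans h1
  obtain ⟨g, hg⟩ := MulAction.exists_smul_eq G P Q
  have ht' : t ∈ (Q : Subgroup G) := hQ (mem_zpowers t)
  rw [← hg, Sylow.coe_subgroup_smul, Subgroup.mem_pointwise_smul_iff_inv_smul_mem, hPc,
    MulAut.smul_def, ← map_inv, MulAut.conj_apply, inv_inv] at ht'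
  obtain ⟨i, hi⟩ := (Submonoid.mem_powers_iff _ _).1 ((mem_powers_iff_mem_zpowers).2 ht')
  refine ⟨g, i, ?_⟩
  rw [hi]
  group

theorem two_mul_oc_le_of {p m : ℕ} (hp : p.Prime) (hm : 3 ≤ m) (hc : ¬ p ∣ m)
    (hexx : ∀ x : G, orderOf x = p → ∃ y : G, orderOf y = m ∧ Commute x y) :
    2 * oc G p ≤ oc G (p * m) := by
  classical
  have hex : ∀ x : {g : G // orderOf g = p}, ∃ y : G, orderOf y = m ∧ Commute (x : G) y :=
    fun x => hexx x.1 x.2
  choose φ hφ1 hφ2 using hex
  have hcop : p.Coprime m := (Nat.Prime.coprime_iff_not_dvd hp).mpr hc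
  have hord : ∀ (x : {g : G // orderOf g = p}) (y : G), orderOf y = m → Commute (x : G) y →
      orderOf ((x : G) * y) = p * m := by
    intro x y hy hxy
    rw [hxy.orderOf_mul_eq_mul_orderOf_of_coprime (by rw [x.2, hy]; exact hcop), x.2, hy]
  let F : {g : G // orderOf g = p} × Bool → {g : G // orderOf g = p * m} := fun z =>
    if z.2 then ⟨(z.1 : G) * φ z.1, hord z.1 _ (hφ1 _) (hφ2 _)⟩
    else ⟨(z.1 : G) * (φ z.1)⁻¹, hord z.1 _ (by rw [orderOf_inv]; exact hφ1 _) (hφ2 _).inv_right⟩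
  have hm1 : 1 < p := hp.one_lt
  obtain ⟨k, -, hk⟩ := Nat.exists_mul_mod_eq_one_of_coprime hcop.symm hm1
  have hrec : ∀ (x : {g : G // orderOf g = p}) (y : G), orderOf y = m → Commute (x : G) y →
      ((x : G) * y) ^ (m * k) = x := by
    intro x y hy hxy
    have hy' : y ^ m = 1 := by rw [← hy]; exact pow_orderOf_eq_one y
    rw [hxy.mul_pow, pow_mul y, hy', one_pow, mul_one]
    have h2 : (m * k) % orderOf (x : G) = 1 := by rw [x.2]; exact hk
    rw [← pow_mod_orderOf, h2, pow_one]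
  have hF1 : ∀ z, ((F z : {g : G // orderOf g = p * m}) : G) ^ (m * k) = z.1 := by
    rintro ⟨x, b⟩
    cases b
    · exact hrec x _ (by rw [orderOf_inv]; exact hφ1 _) (hφ2 _).inv_right
    · exact hrec x _ (hφ1 _) (hφ2 _)
  have hinj : Function.Injective F := by
    rintro ⟨x₁, b₁⟩ ⟨x₂, b₂⟩ h
    have h1 : x₁ = x₂ := by
      have h2 := hF1 (x₁, b₁)
      have h3 := hF1 (x₂, b₂)
      rw [h] at h2
      exact Subtype.ext (h2.symm.trans h3)
    subst h1
    cases b₁ <;> cases b₂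
    · rfl
    · exfalso
      have h2 : (x₁ : G) * (φ x₁)⁻¹ = (x₁ : G) * φ x₁ := congrArg Subtype.val h
      have h3 : (φ x₁)⁻¹ = φ x₁ := mul_left_cancel h2
      have h4 : φ x₁ ^ 2 = 1 := by
        rw [pow_two]
        nth_rewrite 1 [← h3]
        exact inv_mul_cancel _
      have h5 := orderOf_dvd_of_pow_eq_one h4
      rw [hφ1] at h5
      have := Nat.le_of_dvd (by norm_num) h5
      omega
    · exfalso
      have h2 : (x₁ : G) * φ x₁ = (x₁ : G) * (φ x₁)⁻¹ := congrArg Subtype.val h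
      have h3 : φ x₁ = (φ x₁)⁻¹ := mul_left_cancel h2
      have h4 : φ x₁ ^ 2 = 1 := by
        rw [pow_two]
        nth_rewrite 2 [h3]
        exact mul_inv_cancel _
      have h5 := orderOf_dvd_of_pow_eq_one h4
      rw [hφ1] at h5
      have := Nat.le_of_dvd (by norm_num) h5
      omega
    · rfl
  have h1 := Nat.card_le_card_of_injective F hinj
  rw [Nat.card_prod] at h1
  have h2 : Nat.card Bool = 2 := by simp
  rw [h2, mul_comm] at h1
  exact h1

theorem two_mul_pow_le {q m e : ℕ} (hq : q ≠ 1) (hc : (e + 1).Coprime m) (hee : m ∣ e * e)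
    (hex : ∀ t : G, orderOf t = q → ∃ y : G, orderOf y = m ∧ y ^ e = t) :
    2 * oc G q ≤ oc G m := by
  classical
  choose! φ hφ1 hφ2 using hex
  have hy : ∀ t, orderOf t = q → (φ t ^ (e + 1)) ^ e = t := by
    intro t ht
    have h1 : φ t ^ m = 1 := by rw [← hφ1 t ht]; exact pow_orderOf_eq_one _
    have h2 : φ t ^ (e * e) = 1 := by
      obtain ⟨c, hc⟩ := hee
      rw [hc, pow_mul, h1, one_pow]
    calc (φ t ^ (e + 1)) ^ e = φ t ^ (e * e) * φ t ^ e := by
          rw [← pow_mul, ← pow_add]; congr 1; ring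
      _ = t := by rw [h2, one_mul, hφ2 t ht]
  let F : {g : G // orderOf g = q} × Bool → {g : G // orderOf g = m} := fun z =>
    if z.2 then ⟨φ z.1 ^ (e + 1), by
      rw [Nat.Coprime.orderOf_pow (by rw [hφ1 _ z.1.2]; exact hc.symm)]; exact hφ1 _ z.1.2⟩
    else ⟨φ z.1, hφ1 _ z.1.2⟩
  have hF : ∀ z, ((F z : {g : G // orderOf g = m}) : G) ^ e = z.1 := by
    rintro ⟨t, b⟩
    cases b
    · exact hφ2 _ t.2
    · exact hy _ t.2
  have hne : ∀ t : G, orderOf t = q → φ t ^ (e + 1) ≠ φ t := by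
    intro t ht h
    have h1 : φ t ^ e = 1 := by
      have h2 : φ t ^ e * φ t = 1 * φ t := by rw [← pow_succ, h, one_mul]
      exact mul_right_cancel h2
    rw [hφ2 t ht] at h1
    rw [h1, orderOf_one] at ht
    exact hq ht.symm
  have hinj : Function.Injective F := by
    rintro ⟨x₁, b₁⟩ ⟨x₂, b₂⟩ h
    have h1 : x₁ = x₂ := by
      have h2 := hF (x₁, b₁)
      have h3 := hF (x₂, b₂)
      rw [h] at h2
      exact Subtype.ext (h2.symm.trans h3)
    subst h1
    cases b₁ <;> cases b₂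
    · rfl
    · exfalso
      have h2 : φ x₁ = φ x₁ ^ (e + 1) := congrArg Subtype.val h
      exact hne _ x₁.2 h2.symm
    · exfalso
      have h2 : φ x₁ ^ (e + 1) = φ x₁ := congrArg Subtype.val h
      exact hne _ x₁.2 h2
    · rfl
  have h1 := Nat.card_le_card_of_injective F hinj
  rw [Nat.card_prod] at h1
  have h2 : Nat.card Bool = 2 := by simp
  rw [h2, mul_comm] at h1
  exact h1

theorem card_dvd_of_free {Q X : Type*} [Group Q] [Finite Q] [Finite X] [MulAction Q X]
    (h : ∀ (q : Q) (x : X), q • x = x → q = 1) : Nat.card Q ∣ Nat.card X := by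
  classical
  have := Fintype.ofFinite Q
  have := Fintype.ofFinite X
  have := Fintype.ofFinite (MulAction.orbitRel.Quotient Q X)
  rw [Nat.card_congr (MulAction.selfEquivSigmaOrbits Q X), Nat.card_sigma]
  apply Finset.dvd_sum
  intro ω _
  apply dvd_of_eq
  apply Nat.card_congr
  refine Equiv.ofBijective (fun q => ⟨q • Quotient.out ω, MulAction.mem_orbit _ q⟩) ⟨?_, ?_⟩
  · intro a b hab
    have h1 : a • Quotient.out ω = b • Quotient.out ω := congrArg Subtype.val hab
    have h2 : (b⁻¹ * a) • Quotient.out ω = Quotient.out ω := by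
      rw [mul_smul, h1, inv_smul_smul]
    have h3 := h _ _ h2
    exact (inv_mul_eq_one.1 h3).symm
  · rintro ⟨y, q, rfl⟩
    exact ⟨q, rfl⟩

theorem oc_dvd_of_conj {q : ℕ} {z : G} (hz : orderOf z = q)
    (h : ∀ t : G, orderOf t = q → ∃ g : G, t = g * z * g⁻¹) : oc G q ∣ Nat.card G := by
  have hset : {t : G | orderOf t = q} = MulAction.orbit (ConjAct G) z := by
    ext t
    constructor
    · intro ht
      obtain ⟨g, hg⟩ := h t ht
      exact MulAction.mem_orbit_iff.2 ⟨ConjAct.toConjAct g, by rw [hg, ConjAct.smul_def]; rfl⟩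
    · intro ht
      obtain ⟨a, rfl⟩ := MulAction.mem_orbit_iff.1 ht
      show orderOf (a • z) = q
      rw [ConjAct.smul_def, orderOf_conj_eq, hz]
  have h1 : oc G q = (MulAction.orbit (ConjAct G) z).ncard := by
    rw [← hset, ← Nat.card_coe_set_eq]
    rfl
  rw [h1, ← MulAction.index_stabilizer]
  have h2 := Subgroup.index_dvd_card (MulAction.stabilizer (ConjAct G) z)
  have h3 : Nat.card (ConjAct G) = Nat.card G := Nat.card_congr ConjAct.ofConjAct.toEquiv
  rwa [h3] at h2

theorem dvd_ncard_of_no_fixed {p : ℕ} (hp : p.Prime) {x : G} (hx : orderOf x = p) (S : Set G)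
    (hS : ∀ y ∈ S, x * y * x⁻¹ ∈ S) (hno : ∀ y ∈ S, ¬ Commute x y) : p ∣ S.ncard := by
  haveI : Fact p.Prime := ⟨hp⟩
  by_contra hc
  let f : Function.End S := fun y => ⟨x * y * x⁻¹, hS _ y.2⟩
  have hfpow : ∀ (n : ℕ) (y : S), ((f ^ n) y : G) = x ^ n * y * x⁻¹ ^ n := by
    intro n
    induction n with
    | zero =>
      intro y
      simp only [pow_zero, one_mul, mul_one]
      rfl
    | succ n ih =>
      intro y
      rw [pow_succ]
      show (((f ^ n) (f y) : S) : G) = _
      rw [ih (f y)]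
      show x ^ n * (x * y * x⁻¹) * x⁻¹ ^ n = _
      rw [pow_succ x, pow_succ' x⁻¹]
      group
  have hf : f ^ p ^ 1 = 1 := by
    funext y
    apply Subtype.ext
    rw [pow_one, hfpow, ← hx, inv_pow, pow_orderOf_eq_one]
    simp only [one_mul, inv_one, mul_one]
    rfl
  have hc' : ¬ p ∣ Nat.card S := by rwa [Nat.card_coe_set_eq]
  obtain ⟨y, hy⟩ := exists_fixed_of_pow hf hc'
  have h1 : x * (y : G) * x⁻¹ = y := congrArg Subtype.val hy
  exact hno y y.2 (mul_inv_eq_iff_eq_mul.mp h1)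

end Cfsg.Agent.Lib.NSE
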