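import Mathlib
import Cfsg.Agent.Lib.NSE.Basic

/-! Arithmetic helpers for element-order statistics. -/

set_option autoImplicit false

namespace Cfsg.Agent.Lib.NSE

open Subgroup Cfsg.Agent.Lib.PGroups Cfsg.Agent.Lib.PGroups.OrderCount

universe u
variable {G : Type u} [Group G] [Finite G]

theorem oc_zero' : oc G 0 = 0 := by
  by_contra h
  obtain ⟨g, hg⟩ := oc_ne_zero_iff.mp h
  exact (orderOf_pos g).ne' hg

theorem oc_even {m : ℕ} (hm : 2 < m) : 2 ∣ oc G m :=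
  (even_iff_two_dvd.1 (Nat.totient_even hm)).trans (totient_dvd_oc m)

theorem frob_pp {p k : ℕ} (hp : p.Prime) (h : p ^ k ∣ Nat.card G) :
    p ^ k ∣ ∑ x ∈ Finset.range (k + 1), oc G (p ^ x) := by
  have h1 := frob (G := G) (m := p ^ k) (pow_ne_zero _ hp.ne_zero) h
  rwa [Nat.sum_divisors_prime_pow hp] at h1

theorem sp_dvd {p : ℕ} (hp : p.Prime) (hpG : p ∣ Nat.card G) : p ∣ oc G p + 1 := by
  have h := frob_pp (G := G) (p := p) (k := 1) hp (by simpa using hpG)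
  simpa [Finset.sum_range_succ, oc_one, add_comm] using h

theorem sp_tot {p : ℕ} (hp : p.Prime) : p - 1 ∣ oc G p := by
  have h := totient_dvd_oc (G := G) p
  rwa [Nat.totient_prime hp] at h

theorem sp_ne {p : ℕ} (hp : p.Prime) (hpG : p ∣ Nat.card G) : oc G p ≠ 0 := by
  haveI : Fact p.Prime := ⟨hp⟩
  obtain ⟨x, hx⟩ := exists_prime_orderOf_dvd_card' (G := G) p hpG
  exact oc_ne_zero_iff.mpr ⟨x, hx⟩

theorem f2_2 (h : 4 ∣ Nat.card G) : 4 ∣ 1 + oc G 2 + oc G 4 := by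
  have := frob_pp (G := G) (p := 2) (k := 2) Nat.prime_two (by norm_num; exact h)
  simpa [Finset.sum_range_succ, oc_one] using this
theorem f2_3 (h : 8 ∣ Nat.card G) : 8 ∣ 1 + oc G 2 + oc G 4 + oc G 8 := by
  have := frob_pp (G := G) (p := 2) (k := 3) Nat.prime_two (by norm_num; exact h)
  simpa [Finset.sum_range_succ, oc_one] using this
theorem f2_4 (h : 16 ∣ Nat.card G) : 16 ∣ 1 + oc G 2 + oc G 4 + oc G 8 + oc G 16 := by
  have := frob_pp (G := G) (p := 2) (k := 4) Nat.prime_two (by norm_num; exact h)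
  simpa [Finset.sum_range_succ, oc_one] using this
theorem f2_5 (h : 32 ∣ Nat.card G) : 32 ∣ 1 + oc G 2 + oc G 4 + oc G 8 + oc G 16 + oc G 32 := by
  have := frob_pp (G := G) (p := 2) (k := 5) Nat.prime_two (by norm_num; exact h)
  simpa [Finset.sum_range_succ, oc_one] using this
theorem f3_2 (h : 9 ∣ Nat.card G) : 9 ∣ 1 + oc G 3 + oc G 9 := by
  have := frob_pp (G := G) (p := 3) (k := 2) Nat.prime_three (by norm_num; exact h)
  simpa [Finset.sum_range_succ, oc_one] using this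
theorem f3_3 (h : 27 ∣ Nat.card G) : 27 ∣ 1 + oc G 3 + oc G 9 + oc G 27 := by
  have := frob_pp (G := G) (p := 3) (k := 3) Nat.prime_three (by norm_num; exact h)
  simpa [Finset.sum_range_succ, oc_one] using this
theorem f3_4 (h : 81 ∣ Nat.card G) : 81 ∣ 1 + oc G 3 + oc G 9 + oc G 27 + oc G 81 := by
  have := frob_pp (G := G) (p := 3) (k := 4) Nat.prime_three (by norm_num; exact h)
  simpa [Finset.sum_range_succ, oc_one] using this
theorem f3_5 (h : 243 ∣ Nat.card G) : 243 ∣ 1 + oc G 3 + oc G 9 + oc G 27 + oc G 81 + oc G 243 := by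
  have := frob_pp (G := G) (p := 3) (k := 5) Nat.prime_three (by norm_num; exact h)
  simpa [Finset.sum_range_succ, oc_one] using this
theorem f5_2 (h : 25 ∣ Nat.card G) : 25 ∣ 1 + oc G 5 + oc G 25 := by
  have := frob_pp (G := G) (p := 5) (k := 2) Nat.prime_five (by norm_num; exact h)
  simpa [Finset.sum_range_succ, oc_one] using this
theorem f5_3 (h : 125 ∣ Nat.card G) : 125 ∣ 1 + oc G 5 + oc G 25 + oc G 125 := by
  have := frob_pp (G := G) (p := 5) (k := 3) Nat.prime_five (by norm_num; exact h)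
  simpa [Finset.sum_range_succ, oc_one] using this
theorem f7_2 (h : 49 ∣ Nat.card G) : 49 ∣ 1 + oc G 7 + oc G 49 := by
  have := frob_pp (G := G) (p := 7) (k := 2) (by norm_num) (by norm_num; exact h)
  simpa [Finset.sum_range_succ, oc_one] using this

theorem dvd_2357 {N A B C D : ℕ}
    (hp : ∀ p : ℕ, p.Prime → p ∣ N → p = 2 ∨ p = 3 ∨ p = 5 ∨ p = 7)
    (h2 : ¬ 2 ^ (A + 1) ∣ N) (h3 : ¬ 3 ^ (B + 1) ∣ N) (h5 : ¬ 5 ^ (C + 1) ∣ N)
    (h7 : ¬ 7 ^ (D + 1) ∣ N) : N ∣ 2 ^ A * 3 ^ B * 5 ^ C * 7 ^ D := by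
  rw [Nat.dvd_iff_prime_pow_dvd_dvd]
  intro p k hpp hk
  rcases Nat.eq_zero_or_pos k with rfl | hk0
  · simp
  have hpN : p ∣ N := (dvd_pow_self p hk0.ne').trans hk
  have hle : ∀ {a : ℕ}, ¬ p ^ (a + 1) ∣ N → k ≤ a := by
    intro a ha
    by_contra hlt
    exact ha ((pow_dvd_pow p (by omega)).trans hk)
  rcases hp p hpp hpN with rfl | rfl | rfl | rfl
  · exact ((pow_dvd_pow 2 (hle h2)).trans (Dvd.intro _ rfl)).trans
      ((Dvd.intro _ rfl : 2 ^ A * 3 ^ B ∣ _).trans (Dvd.intro _ rfl)) 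
  · exact ((pow_dvd_pow 3 (hle h3)).trans (Dvd.intro_left _ rfl)).trans
      ((Dvd.intro _ rfl : 2 ^ A * 3 ^ B ∣ _).trans (Dvd.intro _ rfl))
  · exact ((pow_dvd_pow 5 (hle h5)).trans (Dvd.intro_left _ rfl)).trans (Dvd.intro _ rfl)
  · exact (pow_dvd_pow 7 (hle h7)).trans (Dvd.intro_left _ rfl)

theorem root_p2 {p : ℕ} [hp : Fact p.Prime] {x : G} (hx : orderOf x = p ^ 2)
    (h3 : ¬ p ^ 3 ∣ Nat.card G) {t : G} (ht : orderOf t = p) :
    ∃ y : G, orderOf y = p ^ 2 ∧ y ^ p = t := by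
  have hpz : IsPGroup p (zpowers t) :=
    IsPGroup.of_card (n := 1) (by rw [Nat.card_zpowers, ht, pow_one])
  obtain ⟨g, i, hg⟩ := syl_conj (p := p) (k := 2) hx h3 hpz
  have hw : orderOf (g * x * g⁻¹) = p ^ 2 := by rw [orderOf_conj_eq, hx]
  have hti : t = (g * x * g⁻¹) ^ i := by rw [hg, conj_pow]
  obtain ⟨w, hwdef⟩ : ∃ w, w = g * x * g⁻¹ := ⟨_, rfl⟩
  rw [← hwdef] at hw hti
  have hp1 := hp.out.one_lt
  have hpi : p ∣ i := by
    by_contra hnd
    have hc : (orderOf w).Coprime i := by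
      rw [hw]
      exact Nat.Coprime.pow_left 2 ((Nat.Prime.coprime_iff_not_dvd hp.out).2 hnd)
    have h1 := Nat.Coprime.orderOf_pow hc
    rw [← hti, ht, hw] at h1
    nlinarith
  obtain ⟨j, rfl⟩ := hpi
  have hpj : ¬ p ∣ j := by
    rintro ⟨c, rfl⟩
    have h1 : t = 1 := by
      rw [hti, show p * (p * c) = p ^ 2 * c by ring, pow_mul, ← hw, pow_orderOf_eq_one, one_pow]
    rw [h1, orderOf_one] at ht
    omega
  refine ⟨w ^ j, ?_, ?_⟩
  · have hc : (orderOf w).Coprime j := by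
      rw [hw]
      exact Nat.Coprime.pow_left 2 ((Nat.Prime.coprime_iff_not_dvd hp.out).2 hpj)
    rw [Nat.Coprime.orderOf_pow hc, hw]
  · rw [hti, ← pow_mul, mul_comm]

end Cfsg.Agent.Lib.NSE
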