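import Mathlib
import Cfsg.Agent.Lib.PGroups.OrderCount

/-! The element-order statistics of the alternating groups of degree 4, 5, 6. -/

set_option autoImplicit false

namespace Cfsg.Agent.Lib.NSE

open Equiv Equiv.Perm Cfsg.Agent.Lib.PGroups.OrderCount

abbrev ordP (n m : ℕ) (g : Perm (Fin n)) : Prop :=
  sign g = 1 ∧ g ^ m = 1 ∧ ∀ d ∈ Finset.range (m - 1), g ^ (d + 1) ≠ 1

instance ordPdec (n m : ℕ) : DecidablePred (ordP n m) := fun _ => inferInstance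

theorem oc_alt (n m : ℕ) (hm : 0 < m) : oc (alternatingGroup (Fin n)) m =
    (Finset.univ.filter (ordP n m)).card := by
  have key : ∀ g : Perm (Fin n), orderOf g = m ↔
      g ^ m = 1 ∧ ∀ d ∈ Finset.range (m - 1), g ^ (d + 1) ≠ 1 := by
    intro g
    rw [orderOf_eq_iff hm]
    constructor
    · rintro ⟨h1, h2⟩
      refine ⟨h1, fun d hd => ?_⟩
      rw [Finset.mem_range] at hd
      exact h2 (d + 1) (by omega) (by omega)
    · rintro ⟨h1, h2⟩
      refine ⟨h1, fun d hd hd0 => ?_⟩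
      have h3 := h2 (d - 1) (by rw [Finset.mem_range]; omega)
      rwa [show d - 1 + 1 = d by omega] at h3
  unfold oc
  rw [← Fintype.card_subtype, ← Nat.card_eq_fintype_card]
  apply Nat.card_congr
  refine ⟨fun g => ⟨g.1.1, (Equiv.Perm.mem_alternatingGroup).1 g.1.2, (key _).1 ?_⟩,
    fun g => ⟨⟨g.1, (Equiv.Perm.mem_alternatingGroup).2 g.2.1⟩, ?_⟩, ?_, ?_⟩
  · rw [Subgroup.orderOf_coe]
    exact g.2
  · rw [Subgroup.orderOf_mk]
    exact (key _).2 g.2.2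
  · intro g
    rfl
  · intro g
    rfl

theorem ord_dvd {n k : ℕ} (g : alternatingGroup (Fin n)) (h : (g : Perm (Fin n)) ^ k = 1) :
    orderOf g ∣ k := by
  rw [← Subgroup.orderOf_coe]
  exact orderOf_dvd_of_pow_eq_one h

theorem mem_sign {n : ℕ} (g : alternatingGroup (Fin n)) : sign (g : Perm (Fin n)) = 1 :=
  (Equiv.Perm.mem_alternatingGroup).1 g.2

theorem a4c2 : oc (alternatingGroup (Fin 4)) 2 = 3 := by
  rw [oc_alt _ _ (by norm_num)]; decide +kernel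
theorem a4c3 : oc (alternatingGroup (Fin 4)) 3 = 8 := by
  rw [oc_alt _ _ (by norm_num)]; decide +kernel
theorem a4o : ∀ g : Perm (Fin 4), sign g = 1 → g ^ 2 = 1 ∨ g ^ 3 = 1 := by decide +kernel

theorem a5c2 : oc (alternatingGroup (Fin 5)) 2 = 15 := by
  rw [oc_alt _ _ (by norm_num)]; decide +kernel
theorem a5c3 : oc (alternatingGroup (Fin 5)) 3 = 20 := by
  rw [oc_alt _ _ (by norm_num)]; decide +kernel
theorem a5c5 : oc (alternatingGroup (Fin 5)) 5 = 24 := by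
  rw [oc_alt _ _ (by norm_num)]; decide +kernel
theorem a5o : ∀ g : Perm (Fin 5), sign g = 1 → g ^ 2 = 1 ∨ g ^ 3 = 1 ∨ g ^ 5 = 1 := by
  decide +kernel

theorem a6c2 : oc (alternatingGroup (Fin 6)) 2 = 45 := by
  rw [oc_alt _ _ (by norm_num)]; decide +kernel
theorem a6c3 : oc (alternatingGroup (Fin 6)) 3 = 80 := by
  rw [oc_alt _ _ (by norm_num)]; decide +kernel
theorem a6c4 : oc (alternatingGroup (Fin 6)) 4 = 90 := by
  rw [oc_alt _ _ (by norm_num)]; decide +kernel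
theorem a6c5 : oc (alternatingGroup (Fin 6)) 5 = 144 := by
  rw [oc_alt _ _ (by norm_num)]; decide +kernel
theorem a6o : ∀ g : Perm (Fin 6), sign g = 1 → g ^ 3 = 1 ∨ g ^ 4 = 1 ∨ g ^ 5 = 1 := by
  decide +kernel

theorem rhs4 : ((fun m : ℕ => Nat.card {g : ↥(alternatingGroup (Fin 4)) // orderOf g = m}) ''
    Set.range (orderOf : ↥(alternatingGroup (Fin 4)) → ℕ)) = {1, 3, 8} := by
  ext v
  constructor
  · rintro ⟨m, ⟨g, rfl⟩, rfl⟩
    show oc _ _ ∈ _
    rcases a4o _ (mem_sign g) with h | h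
    · rcases (Nat.dvd_prime Nat.prime_two).1 (ord_dvd g h) with h1 | h1 <;> rw [h1]
      · rw [oc_one]; simp
      · rw [a4c2]; simp
    · rcases (Nat.dvd_prime Nat.prime_three).1 (ord_dvd g h) with h1 | h1 <;> rw [h1]
      · rw [oc_one]; simp
      · rw [a4c3]; simp
  · rintro (rfl | rfl | rfl)
    · exact ⟨1, ⟨1, orderOf_one⟩, oc_one⟩
    · obtain ⟨g, hg⟩ := (oc_ne_zero_iff (G := alternatingGroup (Fin 4)) (m := 2)).mp (by rw [a4c2]; norm_num)
      exact ⟨2, ⟨g, hg⟩, a4c2⟩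
    · obtain ⟨g, hg⟩ := (oc_ne_zero_iff (G := alternatingGroup (Fin 4)) (m := 3)).mp (by rw [a4c3]; norm_num)
      exact ⟨3, ⟨g, hg⟩, a4c3⟩

theorem rhs5 : ((fun m : ℕ => Nat.card {g : ↥(alternatingGroup (Fin 5)) // orderOf g = m}) ''
    Set.range (orderOf : ↥(alternatingGroup (Fin 5)) → ℕ)) = {1, 15, 20, 24} := by
  ext v
  constructor
  · rintro ⟨m, ⟨g, rfl⟩, rfl⟩
    show oc _ _ ∈ _
    rcases a5o _ (mem_sign g) with h | h | h
    · rcases (Nat.dvd_prime Nat.prime_two).1 (ord_dvd g h) with h1 | h1 <;> rw [h1]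
      · rw [oc_one]; simp
      · rw [a5c2]; simp
    · rcases (Nat.dvd_prime Nat.prime_three).1 (ord_dvd g h) with h1 | h1 <;> rw [h1]
      · rw [oc_one]; simp
      · rw [a5c3]; simp
    · rcases (Nat.dvd_prime Nat.prime_five).1 (ord_dvd g h) with h1 | h1 <;> rw [h1]
      · rw [oc_one]; simp
      · rw [a5c5]; simp
  · rintro (rfl | rfl | rfl | rfl)
    · exact ⟨1, ⟨1, orderOf_one⟩, oc_one⟩
    · obtain ⟨g, hg⟩ := (oc_ne_zero_iff (G := alternatingGroup (Fin 5)) (m := 2)).mp (by rw [a5c2]; norm_num)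
      exact ⟨2, ⟨g, hg⟩, a5c2⟩
    · obtain ⟨g, hg⟩ := (oc_ne_zero_iff (G := alternatingGroup (Fin 5)) (m := 3)).mp (by rw [a5c3]; norm_num)
      exact ⟨3, ⟨g, hg⟩, a5c3⟩
    · obtain ⟨g, hg⟩ := (oc_ne_zero_iff (G := alternatingGroup (Fin 5)) (m := 5)).mp (by rw [a5c5]; norm_num)
      exact ⟨5, ⟨g, hg⟩, a5c5⟩

theorem rhs6 : ((fun m : ℕ => Nat.card {g : ↥(alternatingGroup (Fin 6)) // orderOf g = m}) ''
    Set.range (orderOf : ↥(alternatingGroup (Fin 6)) → ℕ)) = {1, 45, 80, 90, 144} := by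
  ext v
  constructor
  · rintro ⟨m, ⟨g, rfl⟩, rfl⟩
    show oc _ _ ∈ _
    have hcase : orderOf g = 1 ∨ orderOf g = 2 ∨ orderOf g = 3 ∨ orderOf g = 4 ∨ orderOf g = 5 := by
      have hpos := orderOf_pos g
      have hle : orderOf g ≤ 5 := by
        rcases a6o _ (mem_sign g) with h | h | h
        · exact (Nat.le_of_dvd (by norm_num) (ord_dvd g h)).trans (by norm_num)
        · exact (Nat.le_of_dvd (by norm_num) (ord_dvd g h)).trans (by norm_num)
        · exact Nat.le_of_dvd (by norm_num) (ord_dvd g h)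
      omega
    rcases hcase with h1 | h1 | h1 | h1 | h1 <;> rw [h1]
    · rw [oc_one]; simp
    · rw [a6c2]; simp
    · rw [a6c3]; simp
    · rw [a6c4]; simp
    · rw [a6c5]; simp
  · rintro (rfl | rfl | rfl | rfl | rfl)
    · exact ⟨1, ⟨1, orderOf_one⟩, oc_one⟩
    · obtain ⟨g, hg⟩ := (oc_ne_zero_iff (G := alternatingGroup (Fin 6)) (m := 2)).mp (by rw [a6c2]; norm_num)
      exact ⟨2, ⟨g, hg⟩, a6c2⟩
    · obtain ⟨g, hg⟩ := (oc_ne_zero_iff (G := alternatingGroup (Fin 6)) (m := 3)).mp (by rw [a6c3]; norm_num)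
      exact ⟨3, ⟨g, hg⟩, a6c3⟩
    · obtain ⟨g, hg⟩ := (oc_ne_zero_iff (G := alternatingGroup (Fin 6)) (m := 4)).mp (by rw [a6c4]; norm_num)
      exact ⟨4, ⟨g, hg⟩, a6c4⟩
    · obtain ⟨g, hg⟩ := (oc_ne_zero_iff (G := alternatingGroup (Fin 6)) (m := 5)).mp (by rw [a6c5]; norm_num)
      exact ⟨5, ⟨g, hg⟩, a6c5⟩

end Cfsg.Agent.Lib.NSE
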