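import Mathlib
import Cfsg.Agent.Lib.NSE.Arith
import Cfsg.Agent.Lib.PGroups.CycSub2

/-! Recognition of `A₄` by its element-order statistics. -/

set_option autoImplicit false

namespace Cfsg.Agent.Lib.NSE

open Subgroup Cfsg.Agent.Lib.PGroups Cfsg.Agent.Lib.PGroups.OrderCount

universe u
variable {G : Type u} [Group G] [Finite G]

theorem n4_card
    (hval : ∀ m, oc G m ≠ 0 → oc G m = 1 ∨ oc G m = 3 ∨ oc G m = 8)
    (hocc : ∀ v : ℕ, (v = 1 ∨ v = 3 ∨ v = 8) → ∃ m, oc G m = v) :
    Nat.card G = 12 ∧ oc G 3 = 8 := by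
  classical
  haveI f3 : Fact (Nat.Prime 3) := ⟨by norm_num⟩
  have h0 : oc G 0 = 0 := oc_zero'
  have hs1 : oc G 1 = 1 := oc_one
  have hs2 : oc G 2 = 3 := by
    obtain ⟨m, hm⟩ := hocc 3 (by simp)
    have hm2 : m = 2 := by
      by_contra hne
      rcases Nat.lt_or_ge 2 m with h | h
      · have := oc_even (G := G) h
        omega
      · interval_cases m <;> omega
    rwa [hm2] at hm
  have hv : ∀ m, 3 ≤ m → oc G m = 0 ∨ oc G m = 8 := by
    intro m hm
    by_cases h : oc G m = 0
    · exact Or.inl h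
    · have h2 := oc_even (G := G) (m := m) (by omega)
      have := hval m h
      omega
  obtain ⟨m8, hm8⟩ := hocc 8 (by simp)
  have h8 : 3 ≤ m8 := by
    by_contra hlt
    interval_cases m8 <;> omega
  have hN : 12 ≤ Nat.card G := by
    have h1 := sum_le (G := G) {1, 2, m8}
    rw [Finset.sum_insert (by simp only [Finset.mem_insert, Finset.mem_singleton]; omega),
      Finset.sum_insert (by simp only [Finset.mem_insert, Finset.mem_singleton]; omega),
      Finset.sum_singleton, hs1, hs2, hm8] at h1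
    omega
  have hp3 : 3 ∣ Nat.card G → oc G 3 = 8 := by
    intro h
    have h2 := sp_ne (G := G) Nat.prime_three h
    have h3 := hv 3 (by norm_num)
    omega
  have hprime : ∀ p : ℕ, p.Prime → p ∣ Nat.card G → p = 2 ∨ p = 3 ∨ p = 5 ∨ p = 7 := by
    intro p hp hd
    by_cases hp2 : p = 2
    · exact Or.inl hp2
    have hge : 3 ≤ p := by
      have := hp.two_le
      omega
    have h1 := sp_dvd (G := G) hp hd
    have h2 := sp_ne (G := G) hp hd
    have h3 := hv p hge
    rcases h3 with h3 | h3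
    · exact absurd h3 h2
    · rw [h3] at h1
      have h5 : p ∣ 3 ^ 2 := by simpa using h1
      right; left
      exact (Nat.prime_dvd_prime_iff_eq hp Nat.prime_three).1 (hp.dvd_of_dvd_pow h5)
  have h5 : ¬ 5 ∣ Nat.card G := by
    intro h
    have := hprime 5 (by norm_num) h
    have h1 := sp_dvd (G := G) Nat.prime_five h
    have h2 := sp_ne (G := G) Nat.prime_five h
    have h3 := hv 5 (by norm_num)
    omega
  have h7 : ¬ 7 ∣ Nat.card G := by
    intro h
    have h1 := sp_dvd (G := G) (p := 7) (by norm_num) h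
    have h2 := sp_ne (G := G) (p := 7) (by norm_num) h
    have h3 := hv 7 (by norm_num)
    omega
  have hv4 := hv 4 (by norm_num)
  have hv8 := hv 8 (by norm_num)
  have hv9 := hv 9 (by norm_num)
  have hv27 := hv 27 (by norm_num)
  have ht9 := tot (G := G) 9 6 (by decide +kernel)
  have ht27 := tot (G := G) 27 18 (by decide +kernel)
  have h8N : ¬ 8 ∣ Nat.card G := by
    intro h
    have h1 := f2_3 (G := G) h
    omega
  have h27 : ¬ 27 ∣ Nat.card G := by
    intro h
    have h1 := f3_3 (G := G) h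
    have h2 := hp3 ((by norm_num : 3 ∣ 27).trans h)
    omega
  have h3N : 3 ∣ Nat.card G := by
    by_contra hn3
    have hd := dvd_2357 (N := Nat.card G) (A := 2) (B := 0) (C := 0) (D := 0) hprime
      (by norm_num; exact h8N) (by simpa using hn3) (by simpa using h5) (by simpa using h7)
    have := Nat.le_of_dvd (by norm_num) hd
    norm_num at this
    omega
  have hs3 := hp3 h3N
  have hA3 : ∀ m, 3 ≤ m → ¬ 3 ∣ m → oc G m = 0 := by
    intro m hm h3m
    by_contra hs
    have hm8' : oc G m = 8 := by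
      have := hv m hm
      omega
    have h1 := two_mul_oc_le (G := G) (p := 3) (m := m) Nat.prime_three hm h3m (by rw [hm8']; norm_num)
    rw [hs3] at h1
    have h2 := hv (3 * m) (by omega)
    omega
  have hs4 := hA3 4 (by norm_num) (by norm_num)
  have hs9 : oc G 9 = 0 := by omega
  have hd := dvd_2357 (N := Nat.card G) (A := 2) (B := 2) (C := 0) (D := 0) hprime
    (by norm_num; exact h8N) (by norm_num; exact h27) (by simpa using h5) (by simpa using h7)
  norm_num at hd
  have hT : ∀ g : G, orderOf g ∈ ({1, 2, 3, 6} : Finset ℕ) := by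
    intro g
    have h2 : orderOf g ∣ 36 := (orderOf_dvd_natCard g).trans hd
    have h3 : ¬ 4 ∣ orderOf g := fun h =>
      (oc_ne_zero_iff (G := G) (m := orderOf g)).2 ⟨g, rfl⟩ (oc_zero_of_dvd hs4 h)
    have h3' : ¬ 9 ∣ orderOf g := fun h =>
      (oc_ne_zero_iff (G := G) (m := orderOf g)).2 ⟨g, rfl⟩ (oc_zero_of_dvd hs9 h)
    have h4 : ∀ d ∈ Nat.divisors 36, ¬ 4 ∣ d → ¬ 9 ∣ d →
        d ∈ ({1, 2, 3, 6} : Finset ℕ) := by decide +kernel
    exact h4 _ (Nat.mem_divisors.2 ⟨h2, by norm_num⟩) h3 h3'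
  have hsum := sum_eq (G := G) _ hT
  rw [Finset.sum_insert (by decide), Finset.sum_insert (by decide), Finset.sum_insert (by decide),
    Finset.sum_singleton, hs1, hs2, hs3] at hsum
  have hv6 := hv 6 (by norm_num)
  have hN12 : Nat.card G = 12 := by
    rcases hv6 with h6 | h6
    · omega
    · exfalso
      rw [h6] at hsum
      rw [← hsum] at hd
      norm_num at hd
  exact ⟨hN12, hs3⟩

theorem n4
    (hval : ∀ m, oc G m ≠ 0 → oc G m = 1 ∨ oc G m = 3 ∨ oc G m = 8)
    (hocc : ∀ v : ℕ, (v = 1 ∨ v = 3 ∨ v = 8) → ∃ m, oc G m = v) :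
    Nonempty (G ≃* alternatingGroup (Fin 4)) := by
  classical
  haveI f3 : Fact (Nat.Prime 3) := ⟨by norm_num⟩
  obtain ⟨hN, hs3⟩ := n4_card hval hocc
  obtain ⟨b, hb⟩ := (oc_ne_zero_iff (G := G) (m := 3)).1 (by omega)
  refine nonempty_mulEquiv_alternating_of hN b hb ?_
  intro x hx hconj
  by_contra hx1
  have hxo : orderOf x = 3 := by
    have h1 : orderOf x ∣ 3 := by
      rw [← hb, ← Nat.card_zpowers b]
      have h2 := orderOf_dvd_natCard (⟨x, hx⟩ : zpowers b)
      rwa [Subgroup.orderOf_mk] at h2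
    rcases (Nat.dvd_prime Nat.prime_three).1 h1 with h2 | h2
    · exact absurd (orderOf_eq_one_iff.mp h2) hx1
    · exact h2
  have hall : {t : G | orderOf t = 3} ⊆ (zpowers b : Set G) := by
    intro t ht
    have hpz : IsPGroup 3 (zpowers t) :=
      IsPGroup.of_card (n := 1) (by rw [Nat.card_zpowers, ht, pow_one])
    obtain ⟨g, i, hg⟩ := syl_conj (p := 3) (k := 1) (x := x) (by rw [hxo, pow_one])
      (by rw [hN]; norm_num) hpz
    show t ∈ zpowers b
    rw [hg, ← conj_pow]
    exact (zpowers b).pow_mem (hconj g) i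
  have h1 := Set.ncard_le_ncard hall (Set.toFinite _)
  have h2 : oc G 3 = ({t : G | orderOf t = 3}).ncard := by
    rw [← Nat.card_coe_set_eq]
    rfl
  have h3 : ((zpowers b : Subgroup G) : Set G).ncard = 3 := by
    rw [← Nat.card_coe_set_eq]
    show Nat.card (zpowers b) = 3
    rw [Nat.card_zpowers, hb]
  omega

end Cfsg.Agent.Lib.NSE
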