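import Mathlib
import Cfsg.Agent.Lib.NSE.Basic

/-! Simplicity from element-order statistics. -/

set_option autoImplicit false

namespace Cfsg.Agent.Lib.NSE

open Subgroup Cfsg.Agent.Lib.PGroups Cfsg.Agent.Lib.PGroups.OrderCount

universe u
variable {G : Type u} [Group G] [Finite G]

theorem simple_aux
    (hord : ∀ g : G, orderOf g = 1 ∨ orderOf g = 2 ∨ orderOf g = 3 ∨ orderOf g = 4 ∨ orderOf g = 5)
    (h5 : 5 ∣ Nat.card G) (h25 : ¬ 25 ∣ Nat.card G)
    (hA : ∀ r a : ℕ, r ∣ Nat.card G → 1 < r → ¬ 5 ∣ r → 5 ∣ r - 1 → 5 ∣ a - 1 → 1 ≤ a →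
      (3 ∣ r → 3 ∣ a) → (9 ∣ r → 9 ∣ a) → (2 ∣ r → a < r) → a ≤ r → False)
    (hB : ∀ r : ℕ, r ∣ Nat.card G → r < Nat.card G → 5 ∣ r → 1 + oc G 5 ≤ r → 2 * r = Nat.card G)
    (hC : ∀ r : ℕ, 2 * r = Nat.card G → Nat.card G ≤ r + (1 + oc G 2 + oc G 4) → False) :
    IsSimpleGroup G := by
  classical
  haveI : Fact (Nat.Prime 5) := ⟨by norm_num⟩
  haveI : Fact (Nat.Prime 3) := ⟨by norm_num⟩
  haveI : Fact (Nat.Prime 2) := ⟨by norm_num⟩
  obtain ⟨x, hx⟩ := exists_prime_orderOf_dvd_card' (G := G) 5 h5
  have hnt : Nontrivial G := ⟨⟨x, 1, by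
    rintro rfl
    rw [orderOf_one] at hx
    omega⟩⟩
  refine { eq_bot_or_eq_top_of_normal := fun K hK => ?_ }
  by_contra hcon
  push Not at hcon
  obtain ⟨hK1, hK2⟩ := hcon
  have hrN : Nat.card K ∣ Nat.card G := Subgroup.card_subgroup_dvd_card K
  have hr1 : 1 < Nat.card K := by
    rw [Subgroup.one_lt_card_iff_ne_bot]
    exact hK1
  have hrlt : Nat.card K < Nat.card G := by
    have h1 := Nat.le_of_dvd Nat.card_pos hrN
    refine lt_of_le_of_ne h1 (fun h => hK2 (Subgroup.eq_top_of_card_eq K h))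
  have hrset : ((K : Set G)).ncard = Nat.card K := by
    rw [← Nat.card_coe_set_eq]
    rfl
  by_cases h5r : 5 ∣ Nat.card K
  · obtain ⟨x₀, hx₀⟩ := exists_prime_orderOf_dvd_card' (G := K) 5 h5r
    have hx₀' : orderOf (x₀ : G) = 5 := by rwa [Subgroup.orderOf_coe]
    have hall : ∀ z : G, orderOf z = 5 → z ∈ K := by
      intro z hz
      have hpz : IsPGroup 5 (zpowers z) :=
        IsPGroup.of_card (n := 1) (by rw [Nat.card_zpowers, hz, pow_one])
      obtain ⟨g, i, hg⟩ := syl_conj (p := 5) (k := 1) (x := (x₀ : G))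
        (by rw [hx₀', pow_one]) (by simpa using h25) hpz
      rw [hg]
      exact hK.conj_mem _ (K.pow_mem x₀.2 i) g
    have hcount : 1 + oc G 5 ≤ Nat.card K := by
      have h1 : insert (1 : G) {t : G | orderOf t = 5} ⊆ (K : Set G) := by
        rintro y (rfl | hy)
        · exact K.one_mem
        · exact hall y hy
      have h2 := Set.ncard_le_ncard h1 (Set.toFinite _)
      rw [Set.ncard_insert_of_notMem (by
        simp only [Set.mem_setOf_eq, orderOf_one]
        omega) (Set.toFinite _), hrset] at h2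
      have h3 : oc G 5 = ({t : G | orderOf t = 5}).ncard := by
        rw [← Nat.card_coe_set_eq]
        rfl
      omega
    have h2r := hB _ hrN hrlt h5r hcount
    have hidx : K.index = 2 := by
      have h1 := Subgroup.index_mul_card K
      rw [← h2r, mul_comm] at h1
      nlinarith [h1, hr1]
    refine hC _ h2r ?_
    have hunion : (K : Set G) ∪ {g : G | g ^ 4 = 1} = Set.univ := by
      ext g
      simp only [Set.mem_union, SetLike.mem_coe, Set.mem_setOf_eq, Set.mem_univ, iff_true]
      have h2g : g ^ 2 ∈ K := Subgroup.sq_mem_of_index_two hidx g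
      rcases hord g with h | h | h | h | h
      · left
        rw [orderOf_eq_one_iff.mp h]
        exact K.one_mem
      · right
        exact orderOf_dvd_iff_pow_eq_one.mp (by rw [h]; norm_num)
      · left
        have h3 : g ^ 3 = 1 := by rw [← h]; exact pow_orderOf_eq_one g
        have h4 : g = (g ^ 2) ^ 2 := by
          rw [← pow_mul, show 2 * 2 = 3 + 1 from rfl, pow_succ, h3, one_mul]
        rw [h4]
        exact K.pow_mem h2g 2
      · right
        rw [← h]
        exact pow_orderOf_eq_one g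
      · left
        have h3 : g ^ 5 = 1 := by rw [← h]; exact pow_orderOf_eq_one g
        have h4 : g = (g ^ 2) ^ 3 := by
          rw [← pow_mul, show 2 * 3 = 5 + 1 from rfl, pow_succ, h3, one_mul]
        rw [h4]
        exact K.pow_mem h2g 3
    have h1 := Set.ncard_union_le (K : Set G) {g : G | g ^ 4 = 1}
    rw [hunion, Set.ncard_univ, hrset] at h1
    have h2 : ({g : G | g ^ 4 = 1}).ncard = 1 + oc G 2 + oc G 4 := by
      rw [← Nat.card_coe_set_eq]
      have h3 := sol_eq_sum (G := G) (n := 4) (by norm_num)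
      rw [show Nat.divisors 4 = {1, 2, 4} by decide, Finset.sum_insert (by decide),
        Finset.sum_insert (by decide), Finset.sum_singleton, oc_one] at h3
      have h4 : Nat.card ↑{g : G | g ^ 4 = 1} = Nat.card {g : G // g ^ 4 = 1} := rfl
      rw [h4, h3]
      ring
    omega
  · have hno : ∀ y ∈ K, y ≠ 1 → ¬ Commute x y := by
      intro y hy hy1 hc
      have hoy : orderOf y ∣ Nat.card K := by
        have h1 := orderOf_dvd_natCard (⟨y, hy⟩ : K)
        rwa [Subgroup.orderOf_mk] at h1
      have hcop : Nat.Coprime 5 (orderOf y) :=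
        (Nat.Prime.coprime_iff_not_dvd (by norm_num)).2 (fun h => h5r (h.trans hoy))
      have h := hc.orderOf_mul_eq_mul_orderOf_of_coprime (by rw [hx]; exact hcop)
      rw [hx] at h
      have h1 : orderOf y ≠ 1 := fun h => hy1 (orderOf_eq_one_iff.mp h)
      have h2 := orderOf_pos y
      rcases hord (x * y) with h' | h' | h' | h' | h' <;> omega
    have hS1 : 5 ∣ Nat.card K - 1 := by
      have h1 := dvd_ncard_of_no_fixed (p := 5) (by norm_num) hx ((K : Set G) \ {1})
        (fun y hy => ⟨hK.conj_mem y hy.1 x, fun h => hy.2 (by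
          have h2 : x * y * x⁻¹ = 1 := h
          have h3 : y = 1 := by
            have h4 : x * y = x := by
              rw [mul_inv_eq_one] at h2
              exact h2
            simpa using h4
          exact h3)⟩)
        (fun y hy => hno y hy.1 hy.2)
      rwa [Set.ncard_diff_singleton_of_mem (K.one_mem), hrset] at h1
    -- the cube-root set
    set A : Set G := {y : G | y ∈ K ∧ y ^ 3 = 1} with hA3
    have hA1 : (1 : G) ∈ A := ⟨K.one_mem, one_pow _⟩
    have hSa : 5 ∣ A.ncard - 1 := by
      have h1 := dvd_ncard_of_no_fixed (p := 5) (by norm_num) hx (A \ {1})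
        (fun y hy => ⟨⟨hK.conj_mem y hy.1.1 x, by
          rw [conj_pow, hy.1.2]
          simp⟩, fun h => hy.2 (by
          have h2 : x * y * x⁻¹ = 1 := h
          have h3 : y = 1 := by
            have h4 : x * y = x := by
              rw [mul_inv_eq_one] at h2
              exact h2
            simpa using h4
          exact h3)⟩)
        (fun y hy => hno y hy.1.1 hy.2)
      rwa [Set.ncard_diff_singleton_of_mem hA1] at h1
    have hle : A ⊆ (K : Set G) := fun y hy => hy.1
    have hbridge : ∀ m : ℕ, (∀ y : G, y ^ m = 1 ↔ y ^ 3 = 1) → m ∣ Nat.card K → m ∣ A.ncard := by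
      intro m hm hd
      have h1 := frobenius (G := K) hd
      have h2 : A = Subtype.val '' {x : K | x ^ m = 1} := by
        ext y
        constructor
        · rintro ⟨hy, hy3⟩
          refine ⟨⟨y, hy⟩, ?_, rfl⟩
          apply Subtype.ext
          show y ^ m = 1
          exact (hm y).2 hy3
        · rintro ⟨⟨y, hy⟩, hy3, rfl⟩
          refine ⟨hy, (hm y).1 ?_⟩
          have h3 : ((⟨y, hy⟩ : K) ^ m : K) = 1 := hy3
          exact congrArg Subtype.val h3
      rw [h2, Set.ncard_image_of_injective _ Subtype.val_injective, ← Nat.card_coe_set_eq]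
      exact h1
    have h3a : 3 ∣ Nat.card K → 3 ∣ A.ncard := hbridge 3 (fun y => Iff.rfl)
    have h9a : 9 ∣ Nat.card K → 9 ∣ A.ncard := by
      refine hbridge 9 (fun y => ⟨fun h => ?_, fun h => ?_⟩)
      · have h1 := orderOf_dvd_of_pow_eq_one h
        refine orderOf_dvd_iff_pow_eq_one.mp ?_
        rcases hord y with h' | h' | h' | h' | h' <;> rw [h'] at h1 ⊢ <;> omega
      · have : y ^ 9 = (y ^ 3) ^ 3 := by rw [← pow_mul]
        rw [this, h, one_pow]
    have hapos : 1 ≤ A.ncard :=
      (Set.ncard_pos (Set.toFinite A)).2 ⟨1, hA1⟩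
    have hale : A.ncard ≤ Nat.card K := by
      rw [← hrset]
      exact Set.ncard_le_ncard hle (Set.toFinite _)
    have halt : 2 ∣ Nat.card K → A.ncard < Nat.card K := by
      intro h2
      obtain ⟨u, hu⟩ := exists_prime_orderOf_dvd_card' (G := K) 2 h2
      rw [← hrset]
      apply Set.ncard_lt_ncard _ (Set.toFinite _)
      refine ⟨hle, fun h => ?_⟩
      have h3 : (u : G) ∈ A := h u.2
      have hu' : orderOf (u : G) = 2 := by rwa [Subgroup.orderOf_coe]
      have h4 := orderOf_dvd_of_pow_eq_one h3.2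
      rw [hu'] at h4
      omega
    exact hA _ _ hrN hr1 h5r hS1 hSa hapos h3a h9a halt hale

end Cfsg.Agent.Lib.NSE
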