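import Mathlib
import Cfsg.Agent.Lib.NSE.Arith
import Cfsg.Agent.Lib.NSE.Simple
import Cfsg.Agent.S0494

/-! Recognition of `A₅` by its element-order statistics. -/

set_option autoImplicit false

namespace Cfsg.Agent.Lib.NSE

open Subgroup Cfsg.Agent.Lib.PGroups Cfsg.Agent.Lib.PGroups.OrderCount

universe u
variable {G : Type u} [Group G] [Finite G]

theorem oc_zero_of_not_dvd {m : ℕ} (h : ¬ m ∣ Nat.card G) : oc G m = 0 := by
  by_contra h0
  obtain ⟨g, hg⟩ := (oc_ne_zero_iff (G := G) (m := m)).1 h0
  exact h (hg ▸ orderOf_dvd_natCard g)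

set_option maxHeartbeats 4000000 in
theorem n5_card
    (hval : ∀ m, oc G m ≠ 0 → oc G m = 1 ∨ oc G m = 15 ∨ oc G m = 20 ∨ oc G m = 24)
    (hocc : ∀ v : ℕ, (v = 1 ∨ v = 15 ∨ v = 20 ∨ v = 24) → ∃ m, oc G m = v) :
    Nat.card G = 60 ∧ oc G 2 = 15 ∧ oc G 3 = 20 ∧ oc G 5 = 24 ∧ oc G 4 = 0 := by
  classical
  haveI f2 : Fact (Nat.Prime 2) := ⟨by norm_num⟩
  haveI f3 : Fact (Nat.Prime 3) := ⟨by norm_num⟩
  haveI f5 : Fact (Nat.Prime 5) := ⟨by norm_num⟩
  have h0 : oc G 0 = 0 := oc_zero'
  have hs1 : oc G 1 = 1 := oc_one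
  have hs2 : oc G 2 = 15 := by
    obtain ⟨m, hm⟩ := hocc 15 (by simp)
    have hm2 : m = 2 := by
      by_contra hne
      rcases Nat.lt_or_ge 2 m with h | h
      · have := oc_even (G := G) h
        omega
      · interval_cases m <;> omega
    rwa [hm2] at hm
  have hv : ∀ m, 3 ≤ m → oc G m = 0 ∨ oc G m = 20 ∨ oc G m = 24 := by
    intro m hm
    by_cases h : oc G m = 0
    · exact Or.inl h
    · have h2 := oc_even (G := G) (m := m) (by omega)
      have := hval m h
      omega
  obtain ⟨m20, hm20⟩ := hocc 20 (by simp)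
  obtain ⟨m24, hm24⟩ := hocc 24 (by simp)
  have h20 : 3 ≤ m20 := by
    by_contra hlt
    interval_cases m20 <;> omega
  have h24 : 3 ≤ m24 := by
    by_contra hlt
    interval_cases m24 <;> omega
  have hne1 : m20 ≠ m24 := by rintro rfl; omega
  have hN : 60 ≤ Nat.card G := by
    have h1 := sum_le (G := G) {1, 2, m20, m24}
    rw [Finset.sum_insert (by simp only [Finset.mem_insert, Finset.mem_singleton]; omega),
      Finset.sum_insert (by simp only [Finset.mem_insert, Finset.mem_singleton]; omega),
      Finset.sum_insert (by simp only [Finset.mem_insert, Finset.mem_singleton]; omega),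
      Finset.sum_singleton, hs1, hs2, hm20, hm24] at h1
    omega
  have hz : ∀ m, ¬ m ∣ Nat.card G → oc G m = 0 := fun m h => oc_zero_of_not_dvd h
  have hp3 : 3 ∣ Nat.card G → oc G 3 = 20 := by
    intro h
    have h1 := sp_dvd (G := G) Nat.prime_three h
    have h2 := sp_ne (G := G) Nat.prime_three h
    have h3 := hv 3 (by norm_num)
    omega
  have hp5 : 5 ∣ Nat.card G → oc G 5 = 24 := by
    intro h
    have h1 := sp_dvd (G := G) Nat.prime_five h
    have h2 := sp_ne (G := G) Nat.prime_five h
    have h3 := hv 5 (by norm_num)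
    omega
  have h7 : ¬ 7 ∣ Nat.card G := by
    intro h
    have h1 := sp_dvd (G := G) (p := 7) (by norm_num) h
    have h2 := sp_ne (G := G) (p := 7) (by norm_num) h
    have h3 := hv 7 (by norm_num)
    have h4 := sp_tot (G := G) (p := 7) (by norm_num)
    omega
  have hprime : ∀ p : ℕ, p.Prime → p ∣ Nat.card G → p = 2 ∨ p = 3 ∨ p = 5 ∨ p = 7 := by
    intro p hp hd
    by_cases hp2 : p = 2
    · exact Or.inl hp2
    have hge : 3 ≤ p := by
      have := hp.two_le
      omega
    have h1 := sp_dvd (G := G) hp hd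
    have h2 := sp_ne (G := G) hp hd
    have h3 := hv p hge
    rcases h3 with h3 | h3 | h3
    · exact absurd h3 h2
    · rw [h3] at h1
      have h5 : p ∣ 3 * 7 := by simpa using h1
      rcases (Nat.Prime.dvd_mul hp).1 h5 with h6 | h6
      · right; left
        exact (Nat.prime_dvd_prime_iff_eq hp (by norm_num)).1 h6
      · right; right; right
        exact (Nat.prime_dvd_prime_iff_eq hp (by norm_num)).1 h6
    · rw [h3] at h1
      have h5 : p ∣ 5 ^ 2 := by simpa using h1
      right; right; left
      exact (Nat.prime_dvd_prime_iff_eq hp Nat.prime_five).1 (hp.dvd_of_dvd_pow h5)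
  -- 3-part
  have hv9 := hv 9 (by norm_num)
  have hv27 := hv 27 (by norm_num)
  have ht9 := tot (G := G) 9 6 (by decide +kernel)
  have ht27 := tot (G := G) 27 18 (by decide +kernel)
  have h27 : ¬ (3 : ℕ) ^ 3 ∣ Nat.card G := by
    intro h
    have h1 := f3_3 (G := G) (by simpa using h)
    have h2 := hp3 ((by norm_num : 3 ∣ 3 ^ 3).trans h)
    omega
  have h9 : ¬ 9 ∣ Nat.card G := by
    intro h
    have h1 := f3_2 (G := G) h
    have h2 := hp3 ((by norm_num : 3 ∣ 9).trans h)
    have hs9 : oc G 9 = 24 := by omega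
    obtain ⟨x, hx⟩ := (oc_ne_zero_iff (G := G) (m := 9)).1 (by omega)
    have hle := two_mul_pow_le (G := G) (q := 3) (m := 9) (e := 3) (by norm_num) (by norm_num)
      (by norm_num) (fun t ht => root_p2 (p := 3) (x := x) (by rw [hx]; norm_num) h27 ht)
    omega
  -- 5-part
  have hv25 := hv 25 (by norm_num)
  have hv125 := hv 125 (by norm_num)
  have ht25 := tot (G := G) 25 20 (by decide +kernel)
  have ht125 := tot (G := G) 125 100 (by decide +kernel)
  have hs25 : oc G 25 = 0 := by
    by_cases h : 25 ∣ Nat.card G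
    · have h1 := f5_2 (G := G) h
      have h2 := hp5 ((by norm_num : 5 ∣ 25).trans h)
      omega
    · exact hz _ h
  have h125 : ¬ 125 ∣ Nat.card G := by
    intro h
    have h1 := f5_3 (G := G) h
    have h2 := hp5 ((by norm_num : 5 ∣ 125).trans h)
    omega
  -- 2-part
  have hv4 := hv 4 (by norm_num)
  have hv8 := hv 8 (by norm_num)
  have hv16 := hv 16 (by norm_num)
  have hv32 := hv 32 (by norm_num)
  have ht16 := tot (G := G) 16 8 (by decide +kernel)
  have ht32 := tot (G := G) 32 16 (by decide +kernel)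
  have hs32 : oc G 32 = 0 := by omega
  have h128 : ¬ 128 ∣ Nat.card G := by
    intro h
    have h1 := f2_5 (G := G) ((by norm_num : 32 ∣ 128).trans h)
    -- the full count
    have h2 := frob_pp (G := G) (p := 2) (k := 7) Nat.prime_two (by norm_num; exact h)
    have h3 := oc_zero_of_dvd (G := G) (b := 64) hs32 (by norm_num)
    have h4 := oc_zero_of_dvd (G := G) (b := 128) hs32 (by norm_num)
    simp only [Finset.sum_range_succ, Finset.sum_range_zero] at h2
    norm_num at h2
    rw [hs1, hs2, hs32, h3, h4] at h2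
    omega
  have hA3 : 3 ∣ Nat.card G → ∀ m, 3 ≤ m → ¬ 3 ∣ m → oc G m ≠ 20 := by
    intro h3 m hm h3m hs
    have h1 := two_mul_oc_le (G := G) (p := 3) (m := m) Nat.prime_three hm h3m (by rw [hs]; norm_num)
    rw [hp3 h3] at h1
    have h2 := hv (3 * m) (by omega)
    omega
  have hA5 : 5 ∣ Nat.card G → ∀ m, 3 ≤ m → ¬ 5 ∣ m → oc G m ≠ 24 := by
    intro h3 m hm h3m hs
    have h1 := two_mul_oc_le (G := G) (p := 5) (m := m) Nat.prime_five hm h3m (by rw [hs]; norm_num)
    rw [hp5 h3] at h1
    have h2 := hv (5 * m) (by omega)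
    omega
  have hno9 : ¬ 3 ^ (1 + 1) ∣ Nat.card G := by norm_num; exact h9
  by_cases h3N : 3 ∣ Nat.card G
  · by_cases h5N : 5 ∣ Nat.card G
    · -- the main case
      have hs3 := hp3 h3N
      have hs5 := hp5 h5N
      have hs4 : oc G 4 = 0 := by
        have h1 := hA3 h3N 4 (by norm_num) (by norm_num)
        have h2 := hA5 h5N 4 (by norm_num) (by norm_num)
        omega
      have hd := dvd_2357 (N := Nat.card G) (A := 6) (B := 1) (C := 2) (D := 0) hprime
        (by norm_num; exact h128) hno9 (by norm_num; exact h125) (by simpa using h7)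
      norm_num at hd
      have hT : ∀ g : G, orderOf g ∈ ({1, 2, 3, 5, 6, 10, 15, 30} : Finset ℕ) := by
        intro g
        have h2 : orderOf g ∣ 4800 := (orderOf_dvd_natCard g).trans hd
        have h3 : ¬ 4 ∣ orderOf g := fun h =>
          (oc_ne_zero_iff (G := G) (m := orderOf g)).2 ⟨g, rfl⟩ (oc_zero_of_dvd hs4 h)
        have h3' : ¬ 25 ∣ orderOf g := fun h =>
          (oc_ne_zero_iff (G := G) (m := orderOf g)).2 ⟨g, rfl⟩ (oc_zero_of_dvd hs25 h)
        have h4 : ∀ d ∈ Nat.divisors 4800, ¬ 4 ∣ d → ¬ 25 ∣ d →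
            d ∈ ({1, 2, 3, 5, 6, 10, 15, 30} : Finset ℕ) := by decide +kernel
        exact h4 _ (Nat.mem_divisors.2 ⟨h2, by norm_num⟩) h3 h3'
      have hsum := sum_eq (G := G) _ hT
      rw [Finset.sum_insert (by decide), Finset.sum_insert (by decide), Finset.sum_insert (by decide),
        Finset.sum_insert (by decide), Finset.sum_insert (by decide), Finset.sum_insert (by decide),
        Finset.sum_insert (by decide), Finset.sum_singleton, hs1, hs2, hs3, hs5] at hsum
      have hv6 := hv 6 (by norm_num)
      have hv10 := hv 10 (by norm_num)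
      have hv15 := hv 15 (by norm_num)
      have hv30 := hv 30 (by norm_num)
      have h6' := hA5 h5N 6 (by norm_num) (by norm_num)
      have h10' := hA3 h3N 10 (by norm_num) (by norm_num)
      have ht15 := tot (G := G) 15 8 (by decide +kernel)
      have ht30 := tot (G := G) 30 8 (by decide +kernel)
      have hN60 : Nat.card G = 60 := by omega
      exact ⟨hN60, hs2, hs3, hs5, hs4⟩
    · -- only the primes 2, 3
      exfalso
      have hs3 := hp3 h3N
      have hd := dvd_2357 (N := Nat.card G) (A := 6) (B := 1) (C := 0) (D := 0) hprime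
        (by norm_num; exact h128) hno9 (by simpa using h5N) (by simpa using h7)
      norm_num at hd
      have hT : ∀ g : G, orderOf g ∈ ({1, 2, 3, 4, 6, 8, 12, 16, 24, 48} : Finset ℕ) := by
        intro g
        have h2 : orderOf g ∣ 192 := (orderOf_dvd_natCard g).trans hd
        have h3 : ¬ 32 ∣ orderOf g := fun h =>
          (oc_ne_zero_iff (G := G) (m := orderOf g)).2 ⟨g, rfl⟩ (oc_zero_of_dvd hs32 h)
        have h4 : ∀ d ∈ Nat.divisors 192, ¬ 32 ∣ d →
            d ∈ ({1, 2, 3, 4, 6, 8, 12, 16, 24, 48} : Finset ℕ) := by decide +kernel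
        exact h4 _ (Nat.mem_divisors.2 ⟨h2, by norm_num⟩) h3
      have hsum := sum_eq (G := G) _ hT
      rw [Finset.sum_insert (by decide), Finset.sum_insert (by decide), Finset.sum_insert (by decide),
        Finset.sum_insert (by decide), Finset.sum_insert (by decide), Finset.sum_insert (by decide),
        Finset.sum_insert (by decide), Finset.sum_insert (by decide), Finset.sum_insert (by decide),
        Finset.sum_singleton, hs1, hs2, hs3] at hsum
      have hv6 := hv 6 (by norm_num)
      have hv12 := hv 12 (by norm_num)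
      have hv24 := hv 24 (by norm_num)
      have hv48 := hv 48 (by norm_num)
      have ht24 := tot (G := G) 24 8 (by decide +kernel)
      have ht48 := tot (G := G) 48 16 (by decide +kernel)
      have h4' := hA3 h3N 4 (by norm_num) (by norm_num)
      have h8' := hA3 h3N 8 (by norm_num) (by norm_num)
      have h16' := hA3 h3N 16 (by norm_num) (by norm_num)
      have harith : ∀ n : ℕ, n ∣ 192 → 3 ∣ n → 60 ≤ n → n ≤ 180 → n = 96 := by
        intro n h1 h2 h3 h4
        interval_cases n <;> omega
      have hN96 := harith _ hd h3N hN (by omega)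
      have h1 := f2_5 (G := G) (by rw [hN96]; norm_num)
      omega
  · by_cases h5N : 5 ∣ Nat.card G
    · -- only the primes 2, 5
      exfalso
      have hs5 := hp5 h5N
      have hd := dvd_2357 (N := Nat.card G) (A := 6) (B := 0) (C := 2) (D := 0) hprime
        (by norm_num; exact h128) (by simpa using h3N) (by norm_num; exact h125) (by simpa using h7)
      norm_num at hd
      have h4' := hA5 h5N 4 (by norm_num) (by norm_num)
      have h8' := hA5 h5N 8 (by norm_num) (by norm_num)
      have h16' := hA5 h5N 16 (by norm_num) (by norm_num)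
      have hs16 : oc G 16 = 0 := by omega
      have hT : ∀ g : G, orderOf g ∈ ({1, 2, 4, 8, 5, 10, 20, 40} : Finset ℕ) := by
        intro g
        have h2 : orderOf g ∣ 1600 := (orderOf_dvd_natCard g).trans hd
        have h3 : ¬ 16 ∣ orderOf g := fun h =>
          (oc_ne_zero_iff (G := G) (m := orderOf g)).2 ⟨g, rfl⟩ (oc_zero_of_dvd hs16 h)
        have h3' : ¬ 25 ∣ orderOf g := fun h =>
          (oc_ne_zero_iff (G := G) (m := orderOf g)).2 ⟨g, rfl⟩ (oc_zero_of_dvd hs25 h)
        have h4 : ∀ d ∈ Nat.divisors 1600, ¬ 16 ∣ d → ¬ 25 ∣ d →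
            d ∈ ({1, 2, 4, 8, 5, 10, 20, 40} : Finset ℕ) := by decide +kernel
        exact h4 _ (Nat.mem_divisors.2 ⟨h2, by norm_num⟩) h3 h3'
      have hsum := sum_eq (G := G) _ hT
      rw [Finset.sum_insert (by decide), Finset.sum_insert (by decide), Finset.sum_insert (by decide),
        Finset.sum_insert (by decide), Finset.sum_insert (by decide), Finset.sum_insert (by decide),
        Finset.sum_insert (by decide), Finset.sum_singleton, hs1, hs2, hs5] at hsum
      have hv10 := hv 10 (by norm_num)
      have hv20 := hv 20 (by norm_num)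
      have hv40 := hv 40 (by norm_num)
      have ht20 := tot (G := G) 20 8 (by decide +kernel)
      have ht40 := tot (G := G) 40 16 (by decide +kernel)
      have harith : ∀ n : ℕ, n ∣ 1600 → 5 ∣ n → 60 ≤ n → n ≤ 128 → n = 80 ∨ n = 100 := by
        intro n h1 h2 h3 h4
        interval_cases n <;> omega
      rcases harith _ hd h5N hN (by omega) with h80 | h100
      · have h1 := f2_4 (G := G) (by rw [h80]; norm_num)
        have hs4 : oc G 4 = 0 := by omega
        have hs20 := oc_zero_of_dvd (G := G) (b := 20) hs4 (by norm_num)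
        have hs40 := oc_zero_of_dvd (G := G) (b := 40) hs4 (by norm_num)
        omega
      · have hs8 := hz 8 (by rw [h100]; norm_num)
        omega
    · -- a 2-group
      exfalso
      have hd := dvd_2357 (N := Nat.card G) (A := 6) (B := 0) (C := 0) (D := 0) hprime
        (by norm_num; exact h128) (by simpa using h3N) (by simpa using h5N) (by simpa using h7)
      norm_num at hd
      have hT : ∀ g : G, orderOf g ∈ ({1, 2, 4, 8, 16} : Finset ℕ) := by
        intro g
        have h2 : orderOf g ∣ 64 := (orderOf_dvd_natCard g).trans hd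
        have h3 : ¬ 32 ∣ orderOf g := fun h =>
          (oc_ne_zero_iff (G := G) (m := orderOf g)).2 ⟨g, rfl⟩ (oc_zero_of_dvd hs32 h)
        have h4 : ∀ d ∈ Nat.divisors 64, ¬ 32 ∣ d →
            d ∈ ({1, 2, 4, 8, 16} : Finset ℕ) := by decide +kernel
        exact h4 _ (Nat.mem_divisors.2 ⟨h2, by norm_num⟩) h3
      have hsum := sum_eq (G := G) _ hT
      rw [Finset.sum_insert (by decide), Finset.sum_insert (by decide), Finset.sum_insert (by decide),
        Finset.sum_insert (by decide), Finset.sum_singleton, hs1, hs2] at hsum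
      have hN64 : Nat.card G = 64 := by
        have hle := Nat.le_of_dvd (by norm_num) hd
        obtain ⟨c, hc⟩ := hd
        have hc1 : c = 1 := by
          by_contra hne
          have hc0 : c ≠ 0 := by
            rintro rfl
            omega
          have : 2 * Nat.card G ≤ c * Nat.card G := Nat.mul_le_mul_right _ (by omega)
          nlinarith
        subst hc1
        omega
      -- the value 20 occurs at one of the orders
      have hm : oc G m20 ≠ 0 := by omega
      obtain ⟨g, hg⟩ := (oc_ne_zero_iff (G := G) (m := m20)).1 hm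
      have hmem := hT g
      rw [hg] at hmem
      simp only [Finset.mem_insert, Finset.mem_singleton] at hmem
      rcases hmem with rfl | rfl | rfl | rfl | rfl <;> omega

theorem n5
    (hval : ∀ m, oc G m ≠ 0 → oc G m = 1 ∨ oc G m = 15 ∨ oc G m = 20 ∨ oc G m = 24)
    (hocc : ∀ v : ℕ, (v = 1 ∨ v = 15 ∨ v = 20 ∨ v = 24) → ∃ m, oc G m = v) :
    Nonempty (G ≃* alternatingGroup (Fin 5)) := by
  obtain ⟨hN, hs2, hs3, hs5, hs4⟩ := n5_card hval hocc
  have hord : ∀ g : G, orderOf g = 1 ∨ orderOf g = 2 ∨ orderOf g = 3 ∨ orderOf g = 4 ∨ orderOf g = 5 := by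
    intro g
    by_contra hno
    push Not at hno
    obtain ⟨h1, h2, h3, h4, h5⟩ := hno
    have h6 := sum_le (G := G) {1, 2, 3, 5, orderOf g}
    have hne : oc G (orderOf g) ≠ 0 := (oc_ne_zero_iff (G := G)).2 ⟨g, rfl⟩
    rw [Finset.sum_insert (by simp only [Finset.mem_insert, Finset.mem_singleton]; omega),
      Finset.sum_insert (by simp only [Finset.mem_insert, Finset.mem_singleton]; omega),
      Finset.sum_insert (by simp only [Finset.mem_insert, Finset.mem_singleton]; omega),
      Finset.sum_insert (by simp only [Finset.mem_insert, Finset.mem_singleton]; omega),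
      Finset.sum_singleton, oc_one, hs2, hs3, hs5, hN] at h6
    omega
  haveI hsimple : IsSimpleGroup G := by
    refine simple_aux hord (by rw [hN]; norm_num) (by rw [hN]; norm_num) ?_ ?_ ?_
    · intro r a hr hr1 h5 h51 ha1 ha1' h3 h9 h2 hle
      rw [hN] at hr
      have hle' := Nat.le_of_dvd (by norm_num) hr
      interval_cases r <;> omega
    · intro r hr hlt h5 h1
      rw [hN] at hr hlt ⊢
      rw [hs5] at h1
      interval_cases r <;> omega
    · intro r h1 h2
      rw [hN, hs2, hs4] at *
      omega
  exact Cfsg.Agent.S0494.result hN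

end Cfsg.Agent.Lib.NSE
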