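import Mathlib
import Cfsg.Agent.Lib.NSE.Arith
import Cfsg.Agent.Lib.NSE.Simple
import Cfsg.Agent.Lib.A6Rec.Final

/-! Recognition of `A₆` by its element-order statistics. -/

set_option autoImplicit false

namespace Cfsg.Agent.Lib.NSE

open Subgroup Cfsg.Agent.Lib.PGroups Cfsg.Agent.Lib.PGroups.OrderCount

universe u
variable {G : Type u} [Group G] [Finite G]

/-- Step: `|G| = 360` and the order statistics are determined. -/
theorem n6_card
    (hval : ∀ m, oc G m ≠ 0 → oc G m = 1 ∨ oc G m = 45 ∨ oc G m = 80 ∨ oc G m = 90 ∨ oc G m = 144)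
    (hocc : ∀ v : ℕ, (v = 1 ∨ v = 45 ∨ v = 80 ∨ v = 90 ∨ v = 144) → ∃ m, oc G m = v) :
    Nat.card G = 360 ∧ oc G 2 = 45 ∧ oc G 3 = 80 ∧ oc G 4 = 90 ∧ oc G 5 = 144 := by
  classical
  haveI f2 : Fact (Nat.Prime 2) := ⟨by norm_num⟩
  haveI f3 : Fact (Nat.Prime 3) := ⟨by norm_num⟩
  haveI f5 : Fact (Nat.Prime 5) := ⟨by norm_num⟩
  have h0 : oc G 0 = 0 := oc_zero'
  have hs1 : oc G 1 = 1 := oc_one
  have hs2 : oc G 2 = 45 := by
    obtain ⟨m, hm⟩ := hocc 45 (by simp)
    have hm2 : m = 2 := by
      by_contra hne
      rcases Nat.lt_or_ge 2 m with h | h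
      · have := oc_even (G := G) h
        omega
      · interval_cases m <;> omega
    rwa [hm2] at hm
  have hv : ∀ m, 3 ≤ m → oc G m = 0 ∨ oc G m = 80 ∨ oc G m = 90 ∨ oc G m = 144 := by
    intro m hm
    by_cases h : oc G m = 0
    · exact Or.inl h
    · have h2 := oc_even (G := G) (m := m) (by omega)
      have := hval m h
      omega
  obtain ⟨m80, hm80⟩ := hocc 80 (by simp)
  obtain ⟨m90, hm90⟩ := hocc 90 (by simp)
  obtain ⟨m144, hm144⟩ := hocc 144 (by simp)
  have h80 : 3 ≤ m80 := by
    by_contra hlt
    interval_cases m80 <;> omega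
  have h90 : 3 ≤ m90 := by
    by_contra hlt
    interval_cases m90 <;> omega
  have h144 : 3 ≤ m144 := by
    by_contra hlt
    interval_cases m144 <;> omega
  have hne1 : m80 ≠ m90 := by rintro rfl; omega
  have hne2 : m80 ≠ m144 := by rintro rfl; omega
  have hne3 : m90 ≠ m144 := by rintro rfl; omega
  have hN : 360 ≤ Nat.card G := by
    have h1 := sum_le (G := G) {1, 2, m80, m90, m144}
    rw [Finset.sum_insert (by simp only [Finset.mem_insert, Finset.mem_singleton]; omega),
      Finset.sum_insert (by simp only [Finset.mem_insert, Finset.mem_singleton]; omega),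
      Finset.sum_insert (by simp only [Finset.mem_insert, Finset.mem_singleton]; omega),
      Finset.sum_insert (by simp only [Finset.mem_insert, Finset.mem_singleton]; omega),
      Finset.sum_singleton, hs1, hs2, hm80, hm90, hm144] at h1
    omega
  -- the prime divisors
  have hp3 : 3 ∣ Nat.card G → oc G 3 = 80 := by
    intro h
    have h1 := sp_dvd (G := G) Nat.prime_three h
    have h2 := sp_ne (G := G) Nat.prime_three h
    have h3 := hv 3 (by norm_num)
    omega
  have hp5 : 5 ∣ Nat.card G → oc G 5 = 144 := by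
    intro h
    have h1 := sp_dvd (G := G) Nat.prime_five h
    have h2 := sp_ne (G := G) Nat.prime_five h
    have h3 := hv 5 (by norm_num)
    omega
  have hp7 : 7 ∣ Nat.card G → oc G 7 = 90 := by
    intro h
    have h1 := sp_dvd (G := G) (p := 7) (by norm_num) h
    have h2 := sp_ne (G := G) (p := 7) (by norm_num) h
    have h3 := hv 7 (by norm_num)
    omega
  have hprime : ∀ p : ℕ, p.Prime → p ∣ Nat.card G → p = 2 ∨ p = 3 ∨ p = 5 ∨ p = 7 := by
    intro p hp hd
    by_cases hp2 : p = 2
    · exact Or.inl hp2
    have hge : 3 ≤ p := by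
      have := hp.two_le
      omega
    have h1 := sp_dvd (G := G) hp hd
    have h2 := sp_ne (G := G) hp hd
    have h3 := hv p hge
    have h4 := sp_tot (G := G) hp
    rcases h3 with h3 | h3 | h3 | h3
    · exact absurd h3 h2
    · right; left
      rw [h3] at h1
      have h5 : p ∣ 3 ^ 4 := by simpa using h1
      exact (Nat.prime_dvd_prime_iff_eq hp Nat.prime_three).1 (hp.dvd_of_dvd_pow h5)
    · rw [h3] at h1 h4
      have h5 : p ∣ 7 * 13 := by simpa using h1
      rcases (Nat.Prime.dvd_mul hp).1 h5 with h6 | h6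
      · right; right; right
        exact (Nat.prime_dvd_prime_iff_eq hp (by norm_num)).1 h6
      · have h7 := (Nat.prime_dvd_prime_iff_eq hp (by norm_num)).1 h6
        subst h7
        omega
    · rw [h3] at h1 h4
      have h5 : p ∣ 5 * 29 := by simpa using h1
      rcases (Nat.Prime.dvd_mul hp).1 h5 with h6 | h6
      · right; right; left
        exact (Nat.prime_dvd_prime_iff_eq hp (by norm_num)).1 h6
      · have h7 := (Nat.prime_dvd_prime_iff_eq hp (by norm_num)).1 h6
        subst h7
        omega
  -- the 2-part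
  have h4v : 4 ∣ Nat.card G → oc G 4 = 90 := by
    intro h
    have h1 := f2_2 (G := G) h
    have h2 := hv 4 (by norm_num)
    omega
  have h16 : ¬ 16 ∣ Nat.card G := by
    intro h
    have h1 := f2_4 (G := G) h
    have h2 := h4v ((by norm_num : 4 ∣ 16).trans h)
    have h3 := hv 8 (by norm_num)
    have h4 := hv 16 (by norm_num)
    have h5 := tot (G := G) 8 4 (by decide +kernel)
    have h6 := tot (G := G) 16 8 (by decide +kernel)
    omega
  -- the 3-part
  have h243 : ¬ 243 ∣ Nat.card G := by
    intro h
    have h1 := f3_5 (G := G) h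
    have h2 := hp3 ((by norm_num : 3 ∣ 243).trans h)
    have h3 := hv 9 (by norm_num)
    have h4 := hv 27 (by norm_num)
    have h5 := hv 81 (by norm_num)
    have h6 := hv 243 (by norm_num)
    have h7 := tot (G := G) 9 6 (by decide +kernel)
    have h8 := tot (G := G) 27 18 (by decide +kernel)
    have h9 := tot (G := G) 81 54 (by decide +kernel)
    have h10 := tot (G := G) 243 162 (by decide +kernel)
    omega
  -- the 5-part
  have h25 : ¬ 25 ∣ Nat.card G := by
    intro h
    have h5 := hp5 ((by norm_num : 5 ∣ 25).trans h)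
    have h1 := f5_2 (G := G) h
    have ht25 := tot (G := G) 25 20 (by decide +kernel)
    have hv25 := hv 25 (by norm_num)
    have ht125 := tot (G := G) 125 100 (by decide +kernel)
    have hv125 := hv 125 (by norm_num)
    have hs25 : oc G 25 = 80 := by omega
    have h125 : ¬ (5 : ℕ) ^ 3 ∣ Nat.card G := by
      intro h3
      have h4 := f5_3 (G := G) (by simpa using h3)
      omega
    obtain ⟨x, hx⟩ := (oc_ne_zero_iff (G := G) (m := 25)).1 (by omega)
    have hle := two_mul_pow_le (G := G) (q := 5) (m := 25) (e := 5) (by norm_num) (by norm_num)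
      (by norm_num) (fun t ht => root_p2 (p := 5) (x := x) (by rw [hx]; norm_num) h125 ht)
    omega
  -- the 7-part
  have h49 : ¬ 49 ∣ Nat.card G := by
    intro h
    have h1 := f7_2 (G := G) h
    have h2 := hp7 ((by norm_num : 7 ∣ 49).trans h)
    have h3 := hv 49 (by norm_num)
    have h4 := tot (G := G) 49 42 (by decide +kernel)
    omega
  have h7 : ¬ 7 ∣ Nat.card G := by
    intro h
    have hs7 := hp7 h
    have hn3 : ¬ 3 ∣ Nat.card G := by
      intro h3
      have hs3 := hp3 h3
      have h1 := two_mul_oc_le (G := G) (p := 7) (m := 3) (by norm_num) (by norm_num) (by norm_num)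
        (by rw [hs3]; norm_num)
      have h2 := hv (7 * 3) (by norm_num)
      have h3 := tot (G := G) (7 * 3) 12 (by decide +kernel)
      omega
    have hn5 : ¬ 5 ∣ Nat.card G := by
      intro h3
      have hs5 := hp5 h3
      have h1 := two_mul_oc_le (G := G) (p := 7) (m := 5) (by norm_num) (by norm_num) (by norm_num)
        (by rw [hs5]; norm_num)
      have h2 := hv (7 * 5) (by norm_num)
      have h3 := tot (G := G) (7 * 5) 24 (by decide +kernel)
      omega
    have hd := dvd_2357 (N := Nat.card G) (A := 3) (B := 0) (C := 0) (D := 1) hprime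
      (by norm_num; exact h16) (by simpa using hn3) (by simpa using hn5) (by norm_num; exact h49)
    have := Nat.le_of_dvd (by norm_num) hd
    norm_num at this
    omega
  by_cases h5N : 5 ∣ Nat.card G
  · have hs5 := hp5 h5N
    -- no 27
    have h27 : ¬ 27 ∣ Nat.card G := by
      intro h
      have hcomm : ∃ x y : G, orderOf x = 5 ∧ orderOf y = 3 ∧ Commute x y := by
        obtain ⟨Q, hQ⟩ := Sylow.exists_subgroup_card_pow_prime (G := G) 3 (n := 3) (by norm_num; exact h)
        by_contra hno
        push Not at hno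
        letI act : MulAction Q {g : G // orderOf g = 5} :=
          { smul := fun q x => ⟨(q : G) * x * (q : G)⁻¹, by rw [orderOf_conj_eq]; exact x.2⟩
            one_smul := fun x => by
              apply Subtype.ext
              show ((1 : Q) : G) * x * ((1 : Q) : G)⁻¹ = x
              simp
            mul_smul := fun a b x => by
              apply Subtype.ext
              show ((a * b : Q) : G) * x * ((a * b : Q) : G)⁻¹ = a * (b * x * (b : G)⁻¹) * (a : G)⁻¹
              simp only [Subgroup.coe_mul, mul_inv_rev]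
              group }
        have hfree : ∀ (q : Q) (x : {g : G // orderOf g = 5}), q • x = x → q = 1 := by
          intro q x hqx
          by_contra hq1
          have hq1' : (q : G) ≠ 1 := fun h => hq1 (Subtype.ext h)
          have hcq : (q : G) * x * (q : G)⁻¹ = x := congrArg Subtype.val hqx
          have hc : Commute (x : G) (q : G) :=
            (mul_inv_eq_iff_eq_mul.mp hcq).symm
          have hdq : orderOf (q : G) ∣ 3 ^ 3 := by
            have h1 := orderOf_dvd_natCard q
            rw [hQ] at h1
            rwa [Subgroup.orderOf_coe]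
          obtain ⟨j, hj, hjq⟩ := (Nat.dvd_prime_pow Nat.prime_three).1 hdq
          have hj0 : j ≠ 0 := by
            rintro rfl
            rw [pow_zero] at hjq
            exact hq1' (orderOf_eq_one_iff.mp hjq)
          have h3d : 3 ∣ orderOf (q : G) := by
            rw [hjq]
            exact dvd_pow_self 3 hj0
          have hy := orderOf_pow_orderOf_div (orderOf_pos (q : G)).ne' h3d
          exact hno x.1 ((q : G) ^ (orderOf (q : G) / 3)) x.2 hy (hc.pow_right _)
        have h1 := card_dvd_of_free hfree
        have h2 : Nat.card {g : G // orderOf g = 5} = 144 := hs5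
        rw [h2, hQ] at h1
        norm_num at h1
      obtain ⟨x₁, y₁, hx₁, hy₁, hc₁⟩ := hcomm
      have hle := two_mul_oc_le_of (G := G) (p := 5) (m := 3) (by norm_num) (by norm_num)
        (by norm_num) (fun x hx => by
          have hpz : IsPGroup 5 (zpowers x) :=
            IsPGroup.of_card (n := 1) (by rw [Nat.card_zpowers, hx, pow_one])
          obtain ⟨g, i, hg⟩ := syl_conj (p := 5) (k := 1) (x := x₁) (by rw [hx₁, pow_one])
            (by simpa using h25) hpz
          refine ⟨g * y₁ * g⁻¹, by rw [orderOf_conj_eq, hy₁], ?_⟩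
          rw [hg]
          have h1 : Commute (x₁ ^ i) y₁ := hc₁.pow_left i
          show g * x₁ ^ i * g⁻¹ * (g * y₁ * g⁻¹) = g * y₁ * g⁻¹ * (g * x₁ ^ i * g⁻¹)
          have h2 : x₁ ^ i * y₁ = y₁ * x₁ ^ i := h1
          calc g * x₁ ^ i * g⁻¹ * (g * y₁ * g⁻¹) = g * (x₁ ^ i * y₁) * g⁻¹ := by group
            _ = g * (y₁ * x₁ ^ i) * g⁻¹ := by rw [h2]
            _ = _ := by group)
      have h2 := hv (5 * 3) (by norm_num)
      have h3 := tot (G := G) (5 * 3) 8 (by decide +kernel)
      omega
    have hd := dvd_2357 (N := Nat.card G) (A := 3) (B := 2) (C := 1) (D := 0) hprime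
      (by norm_num; exact h16) (by norm_num; exact h27) (by norm_num; exact h25)
      (by simpa using h7)
    norm_num at hd
    have hle := Nat.le_of_dvd (by norm_num) hd
    have hN360 : Nat.card G = 360 := by omega
    refine ⟨hN360, hs2, hp3 (by rw [hN360]; norm_num), h4v (by rw [hN360]; norm_num), hs5⟩
  · exfalso
    have hd := dvd_2357 (N := Nat.card G) (A := 3) (B := 4) (C := 0) (D := 0) hprime
      (by norm_num; exact h16) (by norm_num; exact h243) (by simpa using h5N)
      (by simpa using h7)
    norm_num at hd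
    have hN648 : Nat.card G = 648 := by
      obtain ⟨c, hc⟩ := hd
      have hc1 : c ≤ 1 := by
        by_contra hlt
        have : 2 * Nat.card G ≤ c * Nat.card G := Nat.mul_le_mul_right _ (by omega)
        nlinarith
      have hc0 : c ≠ 0 := by
        rintro rfl
        omega
      have : c = 1 := by omega
      subst this
      omega
    have hs3 := hp3 (by rw [hN648]; norm_num)
    have hs4 := h4v (by rw [hN648]; norm_num)
    have h1 := f3_4 (G := G) (by rw [hN648]; norm_num)
    have hv9 := hv 9 (by norm_num)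
    have hv27 := hv 27 (by norm_num)
    have hv81 := hv 81 (by norm_num)
    have ht9 := tot (G := G) 9 6 (by decide +kernel)
    have ht27 := tot (G := G) 27 18 (by decide +kernel)
    have ht81 := tot (G := G) 81 54 (by decide +kernel)
    have hs9 : oc G 9 = 0 := by omega
    have hT : ∀ g : G, orderOf g ∈ ({1, 2, 3, 4, 6, 8, 12, 24} : Finset ℕ) := by
      intro g
      have h2 : orderOf g ∣ 648 := hN648 ▸ orderOf_dvd_natCard g
      have h3 : ¬ 9 ∣ orderOf g := by
        intro h9
        have := oc_zero_of_dvd (G := G) hs9 h9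
        exact (oc_ne_zero_iff (G := G) (m := orderOf g)).2 ⟨g, rfl⟩ this
      have h4 : ∀ d ∈ Nat.divisors 648, ¬ 9 ∣ d → d ∈ ({1, 2, 3, 4, 6, 8, 12, 24} : Finset ℕ) := by
        decide +kernel
      exact h4 _ (Nat.mem_divisors.2 ⟨h2, by norm_num⟩) h3
    have hsum := sum_eq (G := G) _ hT
    rw [Finset.sum_insert (by decide), Finset.sum_insert (by decide), Finset.sum_insert (by decide),
      Finset.sum_insert (by decide), Finset.sum_insert (by decide), Finset.sum_insert (by decide),
      Finset.sum_insert (by decide), Finset.sum_singleton, hN648, hs1, hs2, hs3, hs4] at hsum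
    have hv6 := hv 6 (by norm_num)
    have hv8 := hv 8 (by norm_num)
    have hv12 := hv 12 (by norm_num)
    have hv24 := hv 24 (by norm_num)
    have hs8 : oc G 8 ≠ 0 := by
      intro h8
      have := oc_zero_of_dvd (G := G) (b := 24) h8 (by norm_num)
      omega
    obtain ⟨y, hy⟩ := (oc_ne_zero_iff (G := G) (m := 8)).1 hs8
    have hy4 : orderOf (y ^ 4) = 2 := by
      have h3 := orderOf_pow_orderOf_div (x := y) (n := 2) (orderOf_pos y).ne' (by rw [hy]; norm_num)
      rwa [hy] at h3
    have hdvd := oc_dvd_of_conj (G := G) hy4 (fun t ht => by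
      have hpz : IsPGroup 2 (zpowers t) :=
        IsPGroup.of_card (n := 1) (by rw [Nat.card_zpowers, ht, pow_one])
      obtain ⟨g, i, hg⟩ := syl_conj (p := 2) (k := 3) (x := y) (by rw [hy]; norm_num)
        (by norm_num; exact h16) hpz
      refine ⟨g, ?_⟩
      have h5 : orderOf (y ^ i) = 2 := by
        rw [hg, orderOf_conj_eq] at ht
        exact ht
      have h6 : (y ^ i) ^ 2 = 1 := by rw [← h5]; exact pow_orderOf_eq_one _
      have h7 : 8 ∣ i * 2 := by
        rw [← hy]
        apply orderOf_dvd_of_pow_eq_one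
        rw [pow_mul]
        exact h6
      have h8 : i % 8 = 0 ∨ i % 8 = 4 := by omega
      have h9 : y ^ i = y ^ (i % 8) := by
        conv_lhs => rw [← pow_mod_orderOf, hy]
      rcases h8 with h8 | h8
      · rw [h9, h8, pow_zero, orderOf_one] at h5
        omega
      · rw [hg, h9, h8])
    rw [hs2, hN648] at hdvd
    norm_num at hdvd

theorem n6
    (hval : ∀ m, oc G m ≠ 0 → oc G m = 1 ∨ oc G m = 45 ∨ oc G m = 80 ∨ oc G m = 90 ∨ oc G m = 144)
    (hocc : ∀ v : ℕ, (v = 1 ∨ v = 45 ∨ v = 80 ∨ v = 90 ∨ v = 144) → ∃ m, oc G m = v) :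
    Nonempty (G ≃* alternatingGroup (Fin 6)) := by
  obtain ⟨hN, hs2, hs3, hs4, hs5⟩ := n6_card hval hocc
  have hord : ∀ g : G, orderOf g = 1 ∨ orderOf g = 2 ∨ orderOf g = 3 ∨ orderOf g = 4 ∨ orderOf g = 5 := by
    intro g
    by_contra hno
    push Not at hno
    obtain ⟨h1, h2, h3, h4, h5⟩ := hno
    have h6 := sum_le (G := G) {1, 2, 3, 4, 5, orderOf g}
    have hne : oc G (orderOf g) ≠ 0 := (oc_ne_zero_iff (G := G)).2 ⟨g, rfl⟩
    rw [Finset.sum_insert (by simp only [Finset.mem_insert, Finset.mem_singleton]; omega),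
      Finset.sum_insert (by simp only [Finset.mem_insert, Finset.mem_singleton]; omega),
      Finset.sum_insert (by simp only [Finset.mem_insert, Finset.mem_singleton]; omega),
      Finset.sum_insert (by simp only [Finset.mem_insert, Finset.mem_singleton]; omega),
      Finset.sum_insert (by simp only [Finset.mem_insert, Finset.mem_singleton]; omega),
      Finset.sum_singleton, oc_one, hs2, hs3, hs4, hs5, hN] at h6
    have h7 := oc_even (G := G) (m := orderOf g)
    omega
  haveI hsimple : IsSimpleGroup G := by
    refine simple_aux hord (by rw [hN]; norm_num) (by rw [hN]; norm_num) ?_ ?_ ?_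
    · intro r a hr hr1 h5 h51 ha1 ha1' h3 h9 h2 hle
      rw [hN] at hr
      have hle' := Nat.le_of_dvd (by norm_num) hr
      interval_cases r <;> omega
    · intro r hr hlt h5 h1
      rw [hN] at hr hlt ⊢
      rw [hs5] at h1
      interval_cases r <;> omega
    · intro r h1 h2
      rw [hN] at h1 h2
      omega
  exact Cfsg.Agent.Lib.A6Rec.main_iso hN

end Cfsg.Agent.Lib.NSE
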